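import Cfsg.Agent.Lib.TransitiveLinear.Normal
import Cfsg.Agent.Lib.PGroups.SLTwoThree
import Cfsg.Agent.Lib.Involutions.ThompsonTransfer
import Cfsg.Agent.Lib.PermGroups.RegularExceptional

/-!
Soluble linear groups regular on the non-zero vectors of a space of odd order: a normal subgroup of
index two, or `SL(2,3)` in degree `5 ^ 2` and `SL(2,3) × C₅` in degree `11 ^ 2`.
-/

set_option autoImplicit false
set_option linter.unusedSectionVars false
set_option linter.style.haveILetI false

namespace CfsgLib.TransitiveLinear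

open CfsgLib.PermGroups.Regular

theorem index_two_of_two_group {G Q : Type*} [Group G] [Group Q] [Finite Q] (f : G →* Q)
    (hf : Function.Surjective f) (hQ : IsPGroup 2 Q) (hne : 1 < Nat.card Q) :
    ∃ N : Subgroup G, N.Normal ∧ N.index = 2 := by
  haveI : Fact (Nat.Prime 2) := ⟨Nat.prime_two⟩
  obtain ⟨k, hk⟩ := IsPGroup.iff_card.1 hQ
  obtain ⟨k, rfl⟩ : ∃ k', k = k' + 1 := Nat.exists_eq_succ_of_ne_zero fun h => by
    rw [h, pow_zero] at hk; omega
  obtain ⟨S, hS⟩ := Sylow.exists_subgroup_card_pow_prime 2 (show 2 ^ k ∣ Nat.card Q from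
    hk ▸ pow_dvd_pow 2 (Nat.le_succ k))
  have hi : (S.comap f).index = 2 := by
    rw [Subgroup.index_comap_of_surjective _ hf]
    have h := Subgroup.card_mul_index S
    rw [hS, hk, pow_succ] at h
    exact Nat.eq_of_mul_eq_mul_left (pow_pos two_pos k) h
  exact ⟨_, Subgroup.normal_of_index_eq_two hi, hi⟩

theorem index_two_of_abelian_even {G Q : Type*} [Group G] [CommGroup Q] [Finite Q] (f : G →* Q)
    (hf : Function.Surjective f) (h2 : 2 ∣ Nat.card Q) :
    ∃ N : Subgroup G, N.Normal ∧ N.index = 2 := by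
  haveI : Fact (Nat.Prime 2) := ⟨Nat.prime_two⟩
  let S : Subgroup Q := (powMonoidHom 2 : Q →* Q).range
  refine index_two_of_two_group ((QuotientGroup.mk' S).comp f)
    ((QuotientGroup.mk'_surjective S).comp hf) (fun q => ?_) ?_
  · obtain ⟨x, rfl⟩ := QuotientGroup.mk_surjective q
    exact ⟨1, by rw [pow_one, ← QuotientGroup.mk_pow, QuotientGroup.eq_one_iff]; exact ⟨x, rfl⟩⟩
  · obtain ⟨x, hx⟩ := exists_prime_orderOf_dvd_card' 2 h2
    rw [Finite.one_lt_card_iff_nontrivial, QuotientGroup.nontrivial_iff]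
    intro h
    have hs : Function.Surjective (powMonoidHom 2 : Q →* Q) := MonoidHom.range_eq_top.1 h
    have h1 : x = 1 := Finite.injective_iff_surjective.2 hs
      (show x ^ 2 = (1 : Q) ^ 2 by rw [one_pow, ← hx, pow_orderOf_eq_one])
    rw [h1, orderOf_one] at hx
    omega

variable {p : ℕ} [Fact p.Prime] {V : Type*} [AddCommGroup V] [Module (ZMod p) V] [Finite V]
  [Nontrivial V] {H : Subgroup (V ≃ₗ[ZMod p] V)}
  (hreg : ∀ v w : V, v ≠ 0 → w ≠ 0 → ∃! h : H, (h : V ≃ₗ[ZMod p] V) v = w)

include hreg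

theorem even_card (hp : p ≠ 2) : Even (Nat.card H) := by
  rw [card_eq hreg, Module.natCard_eq_pow_finrank (K := ZMod p) (V := V), Nat.card_zmod]
  exact Nat.Odd.sub_odd (((Fact.out : p.Prime).odd_of_ne_two hp).pow) odd_one

/-- The semilinear case. -/
theorem index_two_of_irred_abelian (hp : p ≠ 2) {A : Subgroup H} (hA : A.Normal)
    (hc : IsMulCommutative A) (hirr : Irred A) : ∃ N : Subgroup H, N.Normal ∧ N.index = 2 := by
  haveI : Fact (Nat.Prime 2) := ⟨Nat.prime_two⟩
  obtain ⟨ψ, hψ, hfin, -, hcomm⟩ := exists_hom_algEquiv hreg hA hc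
  haveI := hfin
  letI : CommGroup (alg A ≃ₐ[ZMod p] alg A) :=
    { (inferInstance : Group (alg A ≃ₐ[ZMod p] alg A)) with mul_comm := hcomm.is_comm.comm }
  by_cases h2 : 2 ∣ Nat.card ψ.range
  · exact index_two_of_abelian_even ψ.rangeRestrict ψ.rangeRestrict_surjective h2
  obtain ⟨T⟩ : Nonempty (Sylow 2 H) := inferInstance
  have hTk : (T : Subgroup H) ≤ ψ.ker := by
    intro x hx
    rw [MonoidHom.mem_ker, ← orderOf_eq_one_iff]
    obtain ⟨k, hk⟩ := IsPGroup.iff_orderOf.1 T.isPGroup' ⟨x, hx⟩
    rw [Subgroup.orderOf_mk] at hk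
    obtain ⟨i, -, hi⟩ := (Nat.dvd_prime_pow Nat.prime_two).1 (hk ▸ orderOf_map_dvd ψ x)
    rcases Nat.eq_zero_or_pos i with rfl | hi0
    · rw [hi, pow_zero]
    · exfalso
      refine h2 ?_
      have h3 : orderOf (⟨ψ x, MonoidHom.mem_range.2 ⟨x, rfl⟩⟩ : ψ.range) ∣ Nat.card ψ.range := orderOf_dvd_natCard _
      rw [Subgroup.orderOf_mk, hi] at h3
      exact (dvd_pow_self 2 hi0.ne').trans h3
  haveI := isCyclic_centralizer hirr
  have hTc : IsCyclic (T : Subgroup H) :=
    isCyclic_of_injective (Subgroup.inclusion (hψ ▸ hTk : (T : Subgroup H) ≤ _))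
      (Subgroup.inclusion_injective _)
  obtain ⟨K, hK⟩ := CfsgLib.Involutions.exists_index_two_of_cyclic_sylow (even_card hreg hp) T hTc
  exact ⟨K, Subgroup.normal_of_index_eq_two hK, hK⟩

omit hreg in
theorem exists_sign_q8 : ∃ φ : MulAut (QuaternionGroup 2),
    Equiv.Perm.sign φ.toEquiv = -1 := by
  classical
  have hmul : ∀ x y, PermGroups.q8map (.xa 0) (.a 1) (x * y) =
      PermGroups.q8map (.xa 0) (.a 1) x * PermGroups.q8map (.xa 0) (.a 1) y := by decide +kernel
  have hinj : ∀ x, PermGroups.q8map (.xa 0) (.a 1) x = 1 → x = 1 := by decide +kernel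
  let f : QuaternionGroup 2 →* QuaternionGroup 2 :=
    MonoidHom.mk' (PermGroups.q8map (.xa 0) (.a 1)) hmul
  have hf : Function.Bijective f := Finite.injective_iff_bijective.1
    ((injective_iff_map_eq_one f).2 hinj)
  refine ⟨MulEquiv.ofBijective f hf, ?_⟩
  let π₁ : Equiv.Perm (QuaternionGroup 2) :=
    Equiv.swap (.a 1) (.xa 0) * Equiv.swap (.a 3) (.xa 2) * Equiv.swap (.xa 1) (.xa 3)
  have heq : (MulEquiv.ofBijective f hf).toEquiv = π₁ := by
    have hall : ∀ x, PermGroups.q8map (.xa 0) (.a 1) x = π₁ x := by decide +kernel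
    exact Equiv.ext hall
  rw [heq]
  simp [π₁, Equiv.Perm.sign_swap]
  decide

/-- The exceptional case. -/
theorem index_two_or_exception (hI : NoIrredCyclic H) (hsolv : Group.IsSolvable H) :
    (∃ N : Subgroup H, N.Normal ∧ N.index = 2) ∨
      (Nat.card V = 25 ∧ Nonempty (H ≃* Matrix.SpecialLinearGroup (Fin 2) (ZMod 3))) ∨
      (Nat.card V = 121 ∧
        Nonempty (H ≃* Matrix.SpecialLinearGroup (Fin 2) (ZMod 3) × Multiplicative (ZMod 5))) ∨
      Nat.card V = 9 := by
  classical
  haveI : Fact (Nat.Prime 2) := ⟨Nat.prime_two⟩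
  obtain ⟨A, N, hA, hc, hmax, hN, hle, hna, hmin⟩ := exists_A_N hreg hI
  haveI := hN
  haveI := hsolv
  obtain ⟨e⟩ : Nonempty (N ≃* QuaternionGroup 2) := by
    refine (quaternion_or_perfect hreg hA hc hmax hN hle hna hmin).resolve_right
      fun hperf => ?_
    haveI : Nontrivial N := by
      by_contra hn
      haveI : Subsingleton N := not_nontrivial_iff_subsingleton.1 hn
      exact hna (IsMulCommutative.of_comm fun a b => Subsingleton.elim _ _)
    exact (Group.IsSolvable.commutator_lt_top_of_nontrivial N).ne hperf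
  have hcen := centralizer_eq hreg hA hc hmax hN hle hna
  have hirr := irred_of_nonabelian hreg hN hna
  have hV := quaternion_data hreg hN hna e
  let ψ : H →* MulAut (QuaternionGroup 2) :=
    (MulAut.congr e).toMonoidHom.comp MulAut.conjNormal
  have hψ : ψ.ker = Subgroup.centralizer (N : Set H) := by
    ext g
    simp only [ψ, MonoidHom.mem_ker, MonoidHom.comp_apply, MulEquiv.coe_toMonoidHom,
      map_eq_one_iff _ (MulAut.congr e).injective, Subgroup.mem_centralizer_iff]
    constructor
    · intro h n hn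
      have h1 := congrArg Subtype.val (MulEquiv.congr_fun h ⟨n, hn⟩)
      rw [MulAut.conjNormal_apply, MulAut.one_apply] at h1
      exact (mul_inv_eq_iff_eq_mul.1 h1).symm
    · intro h
      refine MulEquiv.ext fun n => Subtype.ext ?_
      rw [MulAut.conjNormal_apply, MulAut.one_apply, ← h n n.2, mul_inv_cancel_right]
  obtain ⟨q, m, ⟨j, hj⟩, hq1, hVq, hAq, hH, hm, hAm, hdvd⟩ :=
    card_facts hreg hcen hirr hV ψ hψ
  have hm24 : m ∣ 24 := hm ▸ PermGroups.card_mulAut_q8 ▸ ψ.range.card_subgroup_dvd_card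
  have hN8 : Nat.card N = 8 := by
    rw [Nat.card_congr e.toEquiv, Nat.card_eq_fintype_card, QuaternionGroup.card]
  have h8 : 8 ∣ q ^ 2 - 1 := hN8 ▸ hH ▸ N.card_subgroup_dvd_card
  -- the centre of `N` lies in `A`
  set t : N := e.symm (.a 2) with ht
  have ht2 : orderOf t = 2 := by
    rw [ht, MulEquiv.orderOf_eq]
    exact orderOf_eq_prime (by decide) (by decide)
  have htA : (t : H) ∈ A := by
    rw [← hcen, Subgroup.mem_centralizer_iff]
    intro n hn
    have hc2 : ∀ x : QuaternionGroup 2, x * .a 2 = .a 2 * x := by decide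
    have h := congrArg e.symm (hc2 (e ⟨n, hn⟩))
    rw [map_mul, map_mul, MulEquiv.symm_apply_apply] at h
    exact congrArg Subtype.val h
  have hA2 : 2 ∣ Nat.card A := by
    rw [← ht2, ← Subgroup.orderOf_coe]
    exact Subgroup.orderOf_dvd_natCard _ htA
  -- the inner automorphisms give four
  have hm4 : 4 ∣ m := by
    have hμ : ∃ B : Subgroup (MulAut (QuaternionGroup 2)), B ≤ ψ.range ∧ Nat.card B = 4 := by
      refine ⟨(MulAut.conj : QuaternionGroup 2 →* _).range, ?_, ?_⟩
      · rintro _ ⟨x, rfl⟩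
        refine ⟨(e.symm x : N), MulEquiv.ext fun y => ?_⟩
        show e (MulAut.conjNormal ((e.symm x : N) : H) (e.symm y)) = x * y * x⁻¹
        rw [show MulAut.conjNormal ((e.symm x : N) : H) (e.symm y) =
          e.symm x * e.symm y * (e.symm x)⁻¹ from Subtype.ext (by rw [MulAut.conjNormal_apply]; rfl)]
        simp
      · have h1 := Subgroup.card_mul_index (MulAut.conj : QuaternionGroup 2 →* _).ker
        rw [Subgroup.index_ker] at h1
        have hker : Nat.card (MulAut.conj : QuaternionGroup 2 →* _).ker = 2 := by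
          have hcen2 : ∀ x : QuaternionGroup 2, (∀ y, x * y * x⁻¹ = y) ↔ x = 1 ∨ x = .a 2 := by
            decide
          have : ((MulAut.conj : QuaternionGroup 2 →* _).ker : Set (QuaternionGroup 2)) =
              {1, .a 2} := by
            ext x
            rw [SetLike.mem_coe, MonoidHom.mem_ker, MulEquiv.ext_iff]
            simp only [MulAut.conj_apply, MulAut.one_apply, hcen2, Set.mem_insert_iff,
              Set.mem_singleton_iff]
          rw [← SetLike.coe_sort_coe, this, Nat.card_coe_set_eq, Set.ncard_pair (by decide)]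
        rw [hker, Nat.card_eq_fintype_card (α := QuaternionGroup 2), QuaternionGroup.card] at h1
        omega
    obtain ⟨B, hB, hB4⟩ := hμ
    rw [hm, ← hB4]
    exact Subgroup.card_dvd_of_le hB
  have hmm : m ∈ ({4, 8, 12, 24} : Finset ℕ) := by
    have := Nat.le_of_dvd (by norm_num) hm24
    have h0 : 0 < m := hm ▸ Nat.card_pos
    have key : ∀ k ∈ Finset.range 25, k ∣ 24 → 4 ∣ k → k ∈ ({4, 8, 12, 24} : Finset ℕ) := by decide
    exact key m (Finset.mem_range.2 (by omega)) hm24 hm4
  simp only [Finset.mem_insert, Finset.mem_singleton] at hmm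
  rcases hmm with h | h | h | h
  · exact Or.inl (index_two_of_two_group ψ.rangeRestrict ψ.rangeRestrict_surjective
      (IsPGroup.of_card (n := 2) (by rw [← hm, h]; rfl)) (by rw [← hm, h]; norm_num))
  · exact Or.inl (index_two_of_two_group ψ.rangeRestrict ψ.rangeRestrict_surjective
      (IsPGroup.of_card (n := 3) (by rw [← hm, h]; rfl)) (by rw [← hm, h]; norm_num))
  swap
  · -- the whole automorphism group
    refine Or.inl ?_
    have htop : ψ.range = ⊤ :=
      Subgroup.eq_top_of_card_eq _ (by rw [← hm, h, PermGroups.card_mulAut_q8])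
    obtain ⟨φ, hφ⟩ := exists_sign_q8
    let s : H →* ℤˣ :=
      Equiv.Perm.sign.comp ((MulAction.toPermHom (MulAut (QuaternionGroup 2)) (QuaternionGroup 2)).comp ψ)
    obtain ⟨g, hg⟩ : φ ∈ ψ.range := htop ▸ Subgroup.mem_top φ
    have hs : Function.Surjective s := by
      intro u
      rcases Int.units_eq_one_or u with rfl | rfl
      · exact ⟨1, map_one s⟩
      · refine ⟨g, ?_⟩
        show Equiv.Perm.sign (MulAction.toPermHom (MulAut (QuaternionGroup 2)) (QuaternionGroup 2) (ψ g)) = -1
        rw [hg]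
        exact hφ
    exact index_two_of_two_group s hs (IsPGroup.of_card (n := 1) (by
      rw [Nat.card_eq_fintype_card, Fintype.card_units_int]; rfl))
      (by rw [Nat.card_eq_fintype_card, Fintype.card_units_int]; norm_num)
  right
  subst h
  have hq12 : q < 12 := by
    have := Nat.le_of_dvd (by norm_num) hdvd
    omega
  obtain ⟨a, ha⟩ : ∃ a, Nat.card A = a := ⟨_, rfl⟩
  rw [ha] at hAq hAm hA2
  have key : ∀ q ∈ Finset.range 12, 1 < q → q + 1 ∣ 12 → 8 ∣ q ^ 2 - 1 →
      q = 3 ∨ q = 5 ∨ q = 11 := by decide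
  rcases key q (Finset.mem_range.2 hq12) hq1 hdvd h8 with rfl | rfl | rfl
  · exact Or.inr (Or.inr (by rw [hVq]; norm_num))
  -- an element of order three acting on `N`
  all_goals
    obtain ⟨s, hs⟩ := exists_prime_orderOf_dvd_card' (G := H) 3 (by rw [hH]; norm_num)
    have hsN : MulAut.conjNormal (H := N) s ≠ 1 := by
      intro h
      have h1 : s ∈ ψ.ker := by
        rw [MonoidHom.mem_ker]
        show MulAut.congr e (MulAut.conjNormal s) = 1
        rw [h, map_one]
      rw [hψ, hcen] at h1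
      have h3 := Subgroup.orderOf_dvd_natCard A h1
      rw [hs, ha] at h3
      have h5 := h3.trans hAq
      norm_num at h5
    have hso : Odd (orderOf (MulAut.conjNormal (H := N) s)) :=
      Odd.of_dvd_nat (by decide : Odd 3) (hs ▸ orderOf_map_dvd _ s)
    obtain ⟨x, y, hxy, hyxy, hx4, -, hyy, hyx, hgenN⟩ := PGroups.exists_pair e _ hso hsN
    have hconjx : s * (x : H) * s⁻¹ = y := congrArg Subtype.val hxy
    have hconjy : s * (y : H) * s⁻¹ = x * y := congrArg Subtype.val hyxy
    have hP : PGroups.SLPres (x : H) (y : H) s :=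
      ⟨by rw [← SubgroupClass.coe_pow, hx4]; rfl,
        by rw [← Subgroup.coe_mul, hyy, SubgroupClass.coe_pow],
        by rw [← sq, ← pow_succ', show (2 + 1) = 3 from rfl, ← hs, pow_orderOf_eq_one],
        by rw [← Subgroup.coe_mul, hyx, Subgroup.coe_mul, SubgroupClass.coe_pow],
        mul_inv_eq_iff_eq_mul.1 hconjx, mul_inv_eq_iff_eq_mul.1 hconjy⟩
    set K := Subgroup.closure ({(x : H), (y : H), s} : Set H) with hK
    have hxK : (x : H) ∈ K := Subgroup.subset_closure (by simp)
    have hyK : (y : H) ∈ K := Subgroup.subset_closure (by simp)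
    have hsK : s ∈ K := Subgroup.subset_closure (by simp)
    have hNK : N ≤ K := by
      intro n hn
      obtain ⟨i, k, h⟩ := hgenN ⟨n, hn⟩
      rw [show n = ((⟨n, hn⟩ : N) : H) from rfl, h, Subgroup.coe_mul, SubgroupClass.coe_pow,
        SubgroupClass.coe_pow]
      exact mul_mem (pow_mem hxK _) (pow_mem hyK _)
    have hK24 : 24 ≤ Nat.card K := Nat.le_of_dvd Nat.card_pos
      (Nat.Coprime.mul_dvd_of_dvd_of_dvd (by norm_num : Nat.Coprime 8 3)
        (hN8 ▸ Subgroup.card_dvd_of_le hNK) (hs ▸ Subgroup.orderOf_dvd_natCard K hsK))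
    have hKle : Nat.card K ≤ 24 := hP.card_closure_le
    have hPK : PGroups.SLPres (⟨_, hxK⟩ : K) ⟨_, hyK⟩ ⟨_, hsK⟩ :=
      ⟨Subtype.ext hP.x_pow, Subtype.ext hP.y_sq, Subtype.ext hP.s_pow, Subtype.ext hP.conj_x,
        Subtype.ext hP.s_x, Subtype.ext hP.s_y⟩
    have hgenK : Subgroup.closure ({⟨_, hxK⟩, ⟨_, hyK⟩, ⟨_, hsK⟩} : Set K) = ⊤ := by
      refine Subgroup.map_injective K.subtype_injective ?_
      rw [MonoidHom.map_closure, ← MonoidHom.range_eq_map, Subgroup.range_subtype, Set.image_insert_eq,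
        Set.image_insert_eq, Set.image_singleton]
      rfl
    obtain ⟨eK⟩ := hPK.nonempty_mulEquiv hgenK hK24
  · refine Or.inl ⟨by rw [hVq]; norm_num, ?_⟩
    have htopK : K = ⊤ := Subgroup.eq_top_of_le_card _ (by rw [hH]; omega)
    exact ⟨(Subgroup.topEquiv.symm.trans (MulEquiv.subgroupCongr htopK.symm)).trans eK⟩
  · refine Or.inr (Or.inl ⟨by rw [hVq]; norm_num, ?_⟩)
    have ha10 : a = 10 := by omega
    subst ha10
    haveI : Fact (Nat.Prime 5) := ⟨Nat.prime_five⟩
    obtain ⟨z, hz⟩ := exists_prime_orderOf_dvd_card' (G := A) 5 (by rw [ha]; norm_num)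
    set B := Subgroup.zpowers (z : H) with hB
    have hB5 : Nat.card B = 5 := by rw [Nat.card_zpowers, Subgroup.orderOf_coe, hz]
    -- `z` is a scalar
    have hzcomm : ∀ k : H, k * (z : H) = z * k := by
      intro k
      have hp11 : p = 11 := by
        have h1 : p ∣ 11 := by
          rcases j with - | j
          · simp at hj
          · exact ⟨p ^ j, by rw [hj, pow_succ']⟩
        exact (Nat.prime_dvd_prime_iff_eq Fact.out (by norm_num)).1 h1
      haveI : Finite (Module.End (ZMod p) V) :=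
        Finite.of_injective (fun g : Module.End (ZMod p) V => (g : V → V)) DFunLike.coe_injective
      have hbot : commutant N = ⊥ := by
        have hS := isInj_commutant hirr
        apply Subalgebra.eq_bot_of_finrank_one
        have h1 : Nat.card (commutant N) = p ^ 1 := by
          have h2 : Nat.card (commutant N) ^ 2 = 11 ^ 2 := by rw [← hV, hVq]
          rw [pow_one]
          exact (Nat.pow_left_injective two_ne_zero h2).trans hp11.symm
        rw [natCard_eq_pow] at h1
        exact Nat.pow_right_injective (Fact.out : p.Prime).two_le h1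
      have hzc : endHom H (z : H) ∈ commutant N :=
        commute_of_mem_commutant.2 (hcen.symm ▸ z.2)
      rw [hbot, Algebra.mem_bot] at hzc
      obtain ⟨c, hc'⟩ := hzc
      apply endHom_injective H
      rw [map_mul, map_mul, ← hc', Algebra.commutes]
    let f : K × B →* H :=
      MonoidHom.mk' (fun kb => (kb.1 : H) * (kb.2 : H)) (fun a b => by
        show ((a.1 * b.1 : K) : H) * ((a.2 * b.2 : B) : H) = _
        obtain ⟨i, hi⟩ := Subgroup.mem_zpowers_iff.1 a.2.2
        have hcm : Commute ((a.2 : B) : H) (b.1 : H) := by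
          rw [← hi]
          exact ((show Commute (b.1 : H) (z : H) from hzcomm _).zpow_right i).symm
        simp only [Subgroup.coe_mul]
        rw [mul_assoc, ← mul_assoc (b.1 : H), ← hcm.eq]
        simp only [mul_assoc])
    have hfinj : Function.Injective f := by
      rw [injective_iff_map_eq_one]
      rintro ⟨k, b⟩ h
      have hkb : (k : H) = ((b : H))⁻¹ := eq_inv_of_mul_eq_one_left h
      have h1 : orderOf (k : H) ∣ Nat.gcd 24 5 := Nat.dvd_gcd
        ((Subgroup.orderOf_dvd_natCard K k.2).trans (dvd_of_eq (by omega)))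
        (hB5 ▸ hkb ▸ (Subgroup.orderOf_dvd_natCard B (inv_mem b.2)))
      have hk1 : (k : H) = 1 := orderOf_eq_one_iff.1 (Nat.dvd_one.1 h1)
      rw [hk1, eq_comm, inv_eq_one] at hkb
      exact Prod.ext (Subtype.ext hk1) (Subtype.ext hkb)
    have hfb : Function.Bijective f := (Nat.bijective_iff_injective_and_card f).2
      ⟨hfinj, by rw [Nat.card_prod, hB5, hH]; omega⟩
    have e5 : B ≃* Multiplicative (ZMod 5) :=
      mulEquivOfPrimeCardEq (p := 5) hB5
        (by rw [Nat.card_congr Multiplicative.toAdd, Nat.card_zmod])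
    exact ⟨(MulEquiv.ofBijective f hfb).symm.trans (eK.prodCongr e5)⟩

end CfsgLib.TransitiveLinear
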